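import Mathlib
import Cfsg.Agent.SympSub.Iso
import Cfsg.Agent.Forms.Orthogonal

/-!
Elements of the symplectic group whose square is central: at most `m / 2 + 1` classes modulo the
centre outside the centre, over a finite field of odd order.
-/

set_option autoImplicit false

namespace Cfsg.Agent.InvClasses25

open Cfsg.Agent.SympSub (isoGroup mem_isoGroup)

variable {F V : Type*} [Field F] [AddCommGroup V] [Module F V] {B : LinearMap.BilinForm F V}

theorem alt_swap (hA : B.IsAlt) (x y : V) : B y x = -B x y := (LinearMap.IsAlt.neg hA x y).symm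

theorem negOne_mem_isoGroup (B : LinearMap.BilinForm F V) : LinearEquiv.neg F ∈ isoGroup B := by
  intro u v; simp

/-- `-1` in the isometry group. -/
noncomputable def negIso (B : LinearMap.BilinForm F V) : ↥(isoGroup B) :=
  ⟨LinearEquiv.neg F, negOne_mem_isoGroup B⟩

theorem negIso_apply (x : V) : ((negIso B : ↥(isoGroup B)) : V ≃ₗ[F] V) x = -x := rfl

theorem negIso_mem_center (B : LinearMap.BilinForm F V) : negIso B ∈ Subgroup.center ↥(isoGroup B) := by
  rw [Subgroup.mem_center_iff]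
  intro g
  refine Subtype.ext (LinearEquiv.ext fun x => ?_)
  simp [negIso]

variable [FiniteDimensional F V]

/-- Central isometries are `1` or `-1`. -/
theorem center_isoGroup (hA : B.IsAlt) (hB : B.Nondegenerate) (z : ↥(isoGroup B))
    (hz : z ∈ Subgroup.center ↥(isoGroup B)) :
    (∀ x, (z : V ≃ₗ[F] V) x = x) ∨ (∀ x, (z : V ≃ₗ[F] V) x = -x) := by
  have heig : ∀ v : V, v ≠ 0 → ∃ a : F, (z : V ≃ₗ[F] V) v = a • v := by
    intro v hv
    obtain ⟨x, hx⟩ : ∃ x, B x v = 1 := by
      by_contra hc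
      push Not at hc
      refine hv (hB.2 v fun y => ?_)
      by_contra hy
      exact hc ((B y v)⁻¹ • y) (by simp [inv_mul_cancel₀ hy])
    let T : V →ₗ[F] V := LinearMap.id + (B.flip v).smulRight v
    let T' : V →ₗ[F] V := LinearMap.id - (B.flip v).smulRight v
    have hvv : B v v = 0 := hA v
    have e1 : T.comp T' = LinearMap.id := by
      ext y; simp [T, T', hvv]
    have e2 : T'.comp T = LinearMap.id := by
      ext y; simp [T, T', hvv]
    have hg : LinearEquiv.ofLinearMap T T' e1 e2 ∈ isoGroup B := by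
      intro y w
      simp [T, hvv, alt_swap hA w v]
      ring
    have h := congrArg (fun g : ↥(isoGroup B) => (g : V ≃ₗ[F] V) x)
      (Subgroup.mem_center_iff.1 hz ⟨_, hg⟩)
    simp [T, hx] at h
    refine ⟨B ((z : V ≃ₗ[F] V) x) v, ?_⟩
    exact h.symm
  rcases subsingleton_or_nontrivial V with hV | hV
  · left; intro x; exact Subsingleton.elim _ _
  obtain ⟨v, hv⟩ := exists_ne (0 : V)
  obtain ⟨a, ha⟩ := heig v hv
  have hall : ∀ w, (z : V ≃ₗ[F] V) w = a • w := by
    intro w
    by_cases hw : w = 0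
    · simp [hw]
    obtain ⟨b, hb⟩ := heig w hw
    by_cases hdep : ∃ c : F, c • v = w
    · obtain ⟨c, rfl⟩ := hdep
      rw [map_smul, ha, smul_comm]
    · have hli : LinearIndependent F ![v, w] := by
        rw [LinearIndependent.pair_iff' hv]; exact fun c hc => hdep ⟨c, hc⟩
      have hvw : v + w ≠ 0 := fun h => hdep ⟨-1, by rw [neg_one_smul]; exact neg_eq_of_add_eq_zero_right h⟩
      obtain ⟨c, hc⟩ := heig (v + w) hvw
      rw [map_add, ha, hb] at hc
      have hz' : (a - c) • v + (b - c) • w = 0 := by linear_combination (norm := module) hc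
      obtain ⟨h1, h3⟩ := LinearIndependent.pair_iff.1 hli _ _ hz'
      rw [hb, sub_eq_zero.1 h3, sub_eq_zero.1 h1]
  obtain ⟨x, hx⟩ : ∃ x, B x v ≠ 0 := by
    by_contra hc
    push Not at hc
    exact hv (hB.2 v hc)
  have h := z.2 x v
  rw [hall, hall] at h
  simp at h
  have ha2 : a * a = 1 := mul_right_cancel₀ hx (by linear_combination h)
  rcases mul_self_eq_one_iff.1 ha2 with h | h
  · left; intro y; rw [hall, h, one_smul]
  · right; intro y; rw [hall, h, neg_one_smul]

theorem exists_isometry_of_finrank_eq {V' : Type*} [AddCommGroup V'] [Module F V']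
    [FiniteDimensional F V'] {B' : LinearMap.BilinForm F V'} (hA : B.IsAlt) (hB : B.Nondegenerate)
    (hA' : B'.IsAlt) (hB' : B'.Nondegenerate) (h : Module.finrank F V = Module.finrank F V') :
    ∃ e : V ≃ₗ[F] V', ∀ x y, B' (e x) (e y) = B x y := by
  obtain ⟨k, b, -, -, -⟩ := Forms.exists_symplectic_basis hA hB
  have hk : Module.finrank F V = 2 * k := by
    rw [Module.finrank_eq_card_basis b, Fintype.card_sum, Fintype.card_fin]; omega
  obtain ⟨e, he⟩ := SympSub.exists_iso_sympBil hA hB hk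
  obtain ⟨e', he'⟩ := SympSub.exists_iso_sympBil hA' hB' (h ▸ hk)
  refine ⟨e.trans e'.symm, fun x y => ?_⟩
  rw [← he', LinearEquiv.trans_apply, LinearEquiv.trans_apply, LinearEquiv.apply_symm_apply,
    LinearEquiv.apply_symm_apply, he]

variable (B) in
/-- Fixed space of an isometry. -/
def fixSpace (t : ↥(isoGroup B)) : Submodule F V :=
  LinearMap.ker (((t : V ≃ₗ[F] V) : V →ₗ[F] V) - LinearMap.id)

variable (B) in
/-- Negated space of an isometry. -/
def negSpace (t : ↥(isoGroup B)) : Submodule F V :=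
  LinearMap.ker (((t : V ≃ₗ[F] V) : V →ₗ[F] V) + LinearMap.id)

omit [FiniteDimensional F V] in
theorem mem_fixSpace {t : ↥(isoGroup B)} {x : V} : x ∈ fixSpace B t ↔ (t : V ≃ₗ[F] V) x = x := by
  simp [fixSpace, sub_eq_zero]

omit [FiniteDimensional F V] in
theorem mem_negSpace {t : ↥(isoGroup B)} {x : V} : x ∈ negSpace B t ↔ (t : V ≃ₗ[F] V) x = -x := by
  simp [negSpace, add_eq_zero_iff_eq_neg]

theorem isCompl_eigen (h2 : (2 : F) ≠ 0) {t : ↥(isoGroup B)}
    (ht : ∀ x, (t : V ≃ₗ[F] V) ((t : V ≃ₗ[F] V) x) = x) :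
    IsCompl (fixSpace B t) (negSpace B t) := by
  constructor
  · rw [Submodule.disjoint_def]
    intro x h1 h3
    rw [mem_fixSpace] at h1
    rw [mem_negSpace, h1] at h3
    have : (2 : F) • x = 0 := by rw [two_smul]; nth_rewrite 1 [h3]; exact neg_add_cancel x
    exact (smul_eq_zero.1 this).resolve_left h2
  · rw [codisjoint_iff, eq_top_iff]
    intro x _
    refine Submodule.mem_sup.2 ⟨(2 : F)⁻¹ • (x + (t : V ≃ₗ[F] V) x), ?_,
      (2 : F)⁻¹ • (x - (t : V ≃ₗ[F] V) x), ?_, ?_⟩
    · rw [mem_fixSpace, map_smul, map_add, ht, add_comm]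
    · rw [mem_negSpace, map_smul, map_sub, ht, ← smul_neg, neg_sub]
    · rw [← smul_add, show x + (t : V ≃ₗ[F] V) x + (x - (t : V ≃ₗ[F] V) x) = (2 : F) • x by
        rw [two_smul]; abel, inv_smul_smul₀ h2]

theorem eigen_orth (h2 : (2 : F) ≠ 0) {t : ↥(isoGroup B)} {p n : V} (hp : p ∈ fixSpace B t)
    (hn : n ∈ negSpace B t) : B p n = 0 ∧ B n p = 0 := by
  rw [mem_fixSpace] at hp
  rw [mem_negSpace] at hn
  constructor
  · have h := t.2 p n
    rw [hp, hn, map_neg] at h
    have : (2 : F) * B p n = 0 := by linear_combination -h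
    exact (mul_eq_zero.1 this).resolve_left h2
  · have h := t.2 n p
    rw [hp, hn, map_neg, LinearMap.neg_apply] at h
    have : (2 : F) * B n p = 0 := by linear_combination -h
    exact (mul_eq_zero.1 this).resolve_left h2

theorem restrict_nondeg_of_orth (hB : B.Nondegenerate) {P N : Submodule F V} (hc : IsCompl P N)
    (ho : ∀ p ∈ P, ∀ n ∈ N, B p n = 0 ∧ B n p = 0) : (B.restrict P).Nondegenerate := by
  constructor
  · intro x hx
    refine Subtype.ext (hB.1 x fun y => ?_)
    obtain ⟨p, hp, n, hn, rfl⟩ := Submodule.mem_sup.1 (hc.sup_eq_top ▸ Submodule.mem_top : y ∈ P ⊔ N)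
    rw [map_add, (ho x x.2 n hn).1, add_zero]
    exact hx ⟨p, hp⟩
  · intro x hx
    refine Subtype.ext (hB.2 x fun y => ?_)
    obtain ⟨p, hp, n, hn, rfl⟩ := Submodule.mem_sup.1 (hc.sup_eq_top ▸ Submodule.mem_top : y ∈ P ⊔ N)
    rw [map_add, LinearMap.add_apply, (ho x x.2 n hn).2, add_zero]
    exact hx ⟨p, hp⟩

theorem restrict_isAlt (hA : B.IsAlt) (P : Submodule F V) : (B.restrict P).IsAlt := fun x => hA (x : V)

theorem even_fixSpace (h2 : (2 : F) ≠ 0) (hA : B.IsAlt) (hB : B.Nondegenerate) {t : ↥(isoGroup B)}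
    (ht : ∀ x, (t : V ≃ₗ[F] V) ((t : V ≃ₗ[F] V) x) = x) :
    Even (Module.finrank F (fixSpace B t)) := by
  obtain ⟨k, b, -, -, -⟩ := Forms.exists_symplectic_basis (restrict_isAlt hA _)
    (restrict_nondeg_of_orth hB (isCompl_eigen h2 ht) fun p hp n hn => eigen_orth h2 hp hn)
  rw [Module.finrank_eq_card_basis b]
  exact ⟨k, by simp⟩

/-- Two involutory isometries with fixed spaces of equal dimension are conjugate. -/
theorem conj_of_finrank_fix_eq (h2 : (2 : F) ≠ 0) (hA : B.IsAlt) (hB : B.Nondegenerate)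
    {t t' : ↥(isoGroup B)} (ht : ∀ x, (t : V ≃ₗ[F] V) ((t : V ≃ₗ[F] V) x) = x)
    (ht' : ∀ x, (t' : V ≃ₗ[F] V) ((t' : V ≃ₗ[F] V) x) = x)
    (h : Module.finrank F (fixSpace B t) = Module.finrank F (fixSpace B t')) :
    ∃ g : ↥(isoGroup B), g * t = t' * g := by
  have hc := isCompl_eigen h2 ht
  have hc' := isCompl_eigen h2 ht'
  have ho := fun p hp n hn => eigen_orth (B := B) (t := t) (p := p) (n := n) h2 hp hn
  have ho' := fun p hp n hn => eigen_orth (B := B) (t := t') (p := p) (n := n) h2 hp hn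
  obtain ⟨eP, heP⟩ := exists_isometry_of_finrank_eq (restrict_isAlt hA (fixSpace B t))
    (restrict_nondeg_of_orth hB hc ho) (restrict_isAlt hA (fixSpace B t'))
    (restrict_nondeg_of_orth hB hc' ho') h
  have hN : Module.finrank F (negSpace B t) = Module.finrank F (negSpace B t') := by
    have h1 := Submodule.finrank_add_eq_of_isCompl hc
    have h3 := Submodule.finrank_add_eq_of_isCompl hc'
    omega
  obtain ⟨eN, heN⟩ := exists_isometry_of_finrank_eq (restrict_isAlt hA (negSpace B t))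
    (restrict_nondeg_of_orth hB hc.symm fun n hn p hp => (ho p hp n hn).symm)
    (restrict_isAlt hA (negSpace B t'))
    (restrict_nondeg_of_orth hB hc'.symm fun n hn p hp => (ho' p hp n hn).symm) hN
  let e : V ≃ₗ[F] V := (Submodule.prodEquivOfIsCompl _ _ hc).symm.trans
    ((eP.prodCongr eN).trans (Submodule.prodEquivOfIsCompl _ _ hc'))
  have he : ∀ (p : fixSpace B t) (n : negSpace B t), e (p + n) = (eP p : V) + eN n := by
    intro p n
    have : (Submodule.prodEquivOfIsCompl _ _ hc).symm ((p : V) + n) = (p, n) := by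
      rw [LinearEquiv.symm_apply_eq]; simp
    simp [e, this]
  have hdec : ∀ x, ∃ (p : fixSpace B t) (n : negSpace B t), x = (p : V) + n := fun x => by
    obtain ⟨p, hp, n, hn, h⟩ := Submodule.mem_sup.1
      (hc.sup_eq_top ▸ Submodule.mem_top : x ∈ fixSpace B t ⊔ negSpace B t)
    exact ⟨⟨p, hp⟩, ⟨n, hn⟩, h.symm⟩
  have hiso : e ∈ isoGroup B := by
    intro u v
    obtain ⟨p, n, rfl⟩ := hdec u
    obtain ⟨p', n', rfl⟩ := hdec v
    have a1 : B (eP p : V) (eP p' : V) = B (p : V) p' := heP p p'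
    have a2 : B (eN n : V) (eN n' : V) = B (n : V) n' := heN n n'
    simp only [he, map_add, LinearMap.add_apply, a1, a2, (ho _ p.2 _ n'.2).1, (ho _ p'.2 _ n.2).2,
      (ho' _ (eP p).2 _ (eN n').2).1, (ho' _ (eP p').2 _ (eN n).2).2]
  refine ⟨⟨e, hiso⟩, Subtype.ext (LinearEquiv.ext fun x => ?_)⟩
  obtain ⟨p, n, rfl⟩ := hdec x
  simp only [Subgroup.coe_mul, LinearEquiv.mul_apply]
  rw [map_add (t : V ≃ₗ[F] V), mem_fixSpace.1 p.2, mem_negSpace.1 n.2, ← Submodule.coe_neg, he, he,
    map_neg, Submodule.coe_neg, map_add (t' : V ≃ₗ[F] V), mem_fixSpace.1 (eP p).2,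
    mem_negSpace.1 (eN n).2]

/-- An adapted symplectic family for an isometry of square `-1`. -/
theorem exists_adapted_family [Finite F] (h2 : (2 : F) ≠ 0) (hA : B.IsAlt) {t : ↥(isoGroup B)}
    (ht : ∀ x, (t : V ≃ₗ[F] V) ((t : V ≃ₗ[F] V) x) = -x) :
    ∀ (n : ℕ) (S : Submodule F V), Module.finrank F S ≤ n → Forms.NondegOn B S →
      (∀ x ∈ S, (t : V ≃ₗ[F] V) x ∈ S) →
      ∃ (k : ℕ) (e : Fin k → V), (∀ i, e i ∈ S) ∧
        (∀ i j, B (e i) ((t : V ≃ₗ[F] V) (e j)) = if i = j then 1 else 0) ∧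
        (∀ i j, B (e i) (e j) = 0) ∧
        S ≤ Submodule.span F (Set.range (Sum.elim e fun i => (t : V ≃ₗ[F] V) (e i))) := by
  obtain ⟨α, hα⟩ : ∃ α : F, ¬ IsSquare α := FiniteField.exists_nonsquare fun h => by
    have := CharP.cast_eq_zero F (ringChar F)
    rw [h] at this
    exact h2 (by simpa using this)
  intro n
  induction n with
  | zero =>
    intro S hS _ _
    obtain rfl : S = ⊥ := Submodule.finrank_eq_zero.1 (Nat.le_zero.1 hS)
    exact ⟨0, Fin.elim0, fun i => i.elim0, fun i => i.elim0, fun i => i.elim0, bot_le⟩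
  | succ n ih =>
    intro S hS hnd hst
    by_cases hbot : S = ⊥
    · exact ⟨0, Fin.elim0, fun i => i.elim0, fun i => i.elim0, fun i => i.elim0, hbot ▸ bot_le⟩
    set T : V →ₗ[F] V := ((t : V ≃ₗ[F] V) : V →ₗ[F] V) with hT
    have hBT : ∀ x y, B (T x) (T y) = B x y := fun x y => t.2 x y
    have hTT : ∀ x, T (T x) = -x := ht
    let g : LinearMap.BilinForm F V := B.compl₂ T
    have hg : ∀ x y, g x y = B x (T y) := fun x y => rfl
    have hsym : g.IsSymm := by
      rw [LinearMap.BilinForm.isSymm_def]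
      intro x y
      rw [hg, hg]
      calc B x (T y) = B (T x) (T (T y)) := (hBT _ _).symm
        _ = -B (T x) y := by rw [hTT, map_neg]
        _ = B y (T x) := by rw [alt_swap hA (T x) y]
    have hgnd : Forms.NondegOn g S := by
      intro x hx h
      refine hnd x hx fun y hy => ?_
      have := h (T y) (hst y hy)
      rw [hg, hTT, map_neg, neg_eq_zero] at this
      exact this
    obtain ⟨x0, hx0, hx0'⟩ := (Submodule.ne_bot_iff _).1 hbot
    obtain ⟨j, hj⟩ : ∃ j, Module.finrank F S = j + 1 + 1 := by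
      have h1 : Module.finrank F S ≠ 0 := fun h => hbot (Submodule.finrank_eq_zero.1 h)
      refine ⟨Module.finrank F S - 2, ?_⟩
      suffices Module.finrank F S ≠ 1 by omega
      intro h
      obtain ⟨v, -, hv⟩ := finrank_eq_one_iff'.1 h
      refine hx0' (hnd x0 hx0 fun y hy => ?_)
      obtain ⟨a, ha⟩ := hv ⟨x0, hx0⟩
      obtain ⟨c, hc⟩ := hv ⟨y, hy⟩
      have ha' : a • (v : V) = x0 := congrArg Subtype.val ha
      have hc' : c • (v : V) = y := congrArg Subtype.val hc
      rw [← ha', ← hc']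
      simp [hA (v : V)]
    obtain ⟨b, hbS, -, hb1, -⟩ := Forms.exists_orthogonal_family_symm h2 g hsym hα (j + 1) S hgnd hj
    obtain ⟨e, he, hee⟩ : ∃ e ∈ S, B e (T e) = 1 :=
      ⟨b 0, hbS 0, by rw [← hg]; exact hb1 0 (by simp [Fin.ext_iff])⟩
    have hTe : B (T e) e = -1 := by rw [alt_swap hA e (T e), hee]
    obtain ⟨S', hS'⟩ : ∃ S', S' = S ⊓ LinearMap.ker (B e) ⊓ LinearMap.ker (B (T e)) := ⟨_, rfl⟩
    have hmem : ∀ z, z ∈ S' ↔ z ∈ S ∧ B e z = 0 ∧ B (T e) z = 0 := fun z => by
      simp [hS', and_assoc]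
    have hlt : S' < S := by
      refine lt_of_le_of_ne (fun z hz => ((hmem z).1 hz).1) fun heq => ?_
      have := ((hmem e).1 (heq ▸ he)).2.2
      rw [hTe] at this
      simp at this
    have hproj : ∀ z ∈ S, z - B z (T e) • e + B z e • T e ∈ S' := fun z hz => (hmem _).2
      ⟨add_mem (sub_mem hz (S.smul_mem _ he)) (S.smul_mem _ (hst e he)),
        by simp only [map_add, map_sub, map_smul, hA e, hee, smul_eq_mul, alt_swap hA e z]; ring,
        by simp only [map_add, map_sub, map_smul, hA (T e), hTe, smul_eq_mul, alt_swap hA (T e) z]; ring⟩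
    have hnd' : Forms.NondegOn B S' := by
      intro x hx h
      have hx' := (hmem x).1 hx
      refine hnd x hx'.1 fun y hy => ?_
      have := h _ (hproj y hy)
      have a1 : B x e = 0 := by rw [alt_swap hA e x, hx'.2.1, neg_zero]
      have a2 : B x (T e) = 0 := by rw [alt_swap hA (T e) x, hx'.2.2, neg_zero]
      simpa [a1, a2] using this
    have hst' : ∀ x ∈ S', T x ∈ S' := by
      intro x hx
      have hx' := (hmem x).1 hx
      refine (hmem _).2 ⟨hst x hx'.1, ?_, ?_⟩
      · have := hBT (T e) x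
        rw [hTT, map_neg, LinearMap.neg_apply, hx'.2.2] at this
        simpa using this
      · rw [hBT]; exact hx'.2.1
    obtain ⟨k, es, hes, h1, h3, hspan⟩ := ih S'
      (by have := Submodule.finrank_lt_finrank_of_lt hlt; omega) hnd' hst'
    have hes' := fun i => ((hmem _).1 (hes i)).2
    have hTes := fun i => ((hmem _).1 (hst' _ (hes i))).2
    refine ⟨k + 1, Fin.cons e es, Fin.cases he fun i => ((hmem _).1 (hes i)).1, ?_, ?_, ?_⟩
    · intro i l
      change B _ (T _) = _
      refine Fin.cases ?_ (fun i => ?_) i <;> refine Fin.cases ?_ (fun l => ?_) l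
      · simp [hee]
      · simp [(hTes l).1, (Fin.succ_ne_zero l).symm]
      · simp [alt_swap hA (T e) (es i), (hes' i).2, Fin.succ_ne_zero i]
      · simp only [Fin.cons_succ, Fin.succ_inj]; exact h1 i l
    · intro i l
      refine Fin.cases ?_ (fun i => ?_) i <;> refine Fin.cases ?_ (fun l => ?_) l
      · simp [hA e]
      · simp [(hes' l).1]
      · simp [alt_swap hA e (es i), (hes' i).1]
      · simp [h3 i l]
    · intro z hz
      have hsub : Set.range (Sum.elim es fun i => T (es i)) ⊆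
          Set.range (Sum.elim (Fin.cons e es : Fin (k + 1) → V) fun i => T ((Fin.cons e es : Fin (k + 1) → V) i)) := by
        rintro _ ⟨i | i, rfl⟩
        · exact ⟨.inl i.succ, by simp⟩
        · exact ⟨.inr i.succ, by simp⟩
      rw [show z = (z - B z (T e) • e + B z e • T e) + B z (T e) • e - B z e • T e by abel]
      refine sub_mem (add_mem (Submodule.span_mono hsub (hspan (hproj z hz))) ?_) ?_
      · exact Submodule.smul_mem _ _ (Submodule.subset_span ⟨.inl 0, by simp⟩)
      · exact Submodule.smul_mem _ _ (Submodule.subset_span ⟨.inr 0, by simp [hT]⟩)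

/-- Two isometries of square `-1` are conjugate. -/
theorem conj_of_sq_neg [Finite F] (h2 : (2 : F) ≠ 0) (hA : B.IsAlt) (hB : B.Nondegenerate)
    {t t' : ↥(isoGroup B)} (ht : ∀ x, (t : V ≃ₗ[F] V) ((t : V ≃ₗ[F] V) x) = -x)
    (ht' : ∀ x, (t' : V ≃ₗ[F] V) ((t' : V ≃ₗ[F] V) x) = -x) :
    ∃ g : ↥(isoGroup B), g * t = t' * g := by
  have key : ∀ t : ↥(isoGroup B), (∀ x, (t : V ≃ₗ[F] V) ((t : V ≃ₗ[F] V) x) = -x) →
      ∃ (k : ℕ) (b : Module.Basis (Fin k ⊕ Fin k) F V),
        (∀ i, b (.inr i) = (t : V ≃ₗ[F] V) (b (.inl i))) ∧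
        (∀ i j, B (b (.inl i)) (b (.inr j)) = if i = j then 1 else 0) ∧
        (∀ i j, B (b (.inl i)) (b (.inl j)) = 0) ∧ (∀ i j, B (b (.inr i)) (b (.inr j)) = 0) := by
    intro t ht
    obtain ⟨k, e, -, h1, h3, hspan⟩ := exists_adapted_family h2 hA ht (Module.finrank F V) ⊤
      (by rw [finrank_top]) (fun x _ h => hB.1 x fun y => h y trivial) (fun _ _ => trivial)
    have h4 : ∀ i j, B ((t : V ≃ₗ[F] V) (e i)) ((t : V ≃ₗ[F] V) (e j)) = 0 := fun i j => by
      rw [t.2, h3]
    have hli := Forms.linearIndependent_symplectic_family (B := B) (e := e)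
      (f := fun i => (t : V ≃ₗ[F] V) (e i)) (r := (Fin.elim0 : Fin 0 → V)) h1 h3
      (fun j => j.elim0) (fun _ j => j.elim0) linearIndependent_empty_type
    have hli' : LinearIndependent F (Sum.elim e fun i => (t : V ≃ₗ[F] V) (e i)) :=
      hli.comp Sum.inl Sum.inl_injective
    exact ⟨k, Module.Basis.mk hli' hspan, by simp, by simpa using h1, by simpa using h3, by simpa using h4⟩
  obtain ⟨k, b, hbt, hb1, hb3, hb4⟩ := key t ht
  obtain ⟨k', b', hbt', hb1', hb3', hb4'⟩ := key t' ht'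
  obtain rfl : k = k' := by
    have h1 := Module.finrank_eq_card_basis b
    have h3 := Module.finrank_eq_card_basis b'
    simp at h1 h3; omega
  let e : V ≃ₗ[F] V := b.equiv b' (Equiv.refl _)
  have hiso : B.comp e.toLinearMap e.toLinearMap = B := by
    refine LinearMap.BilinForm.ext_basis b fun i j => ?_
    simp only [LinearMap.BilinForm.comp_apply, LinearEquiv.coe_coe, e, Module.Basis.equiv_apply,
      Equiv.refl_apply]
    rcases i with i | i <;> rcases j with j | j
    · rw [hb3, hb3']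
    · rw [hb1, hb1']
    · rw [alt_swap hA (b (.inl j)), alt_swap hA (b' (.inl j)), hb1, hb1']
    · rw [hb4, hb4']
  refine ⟨⟨e, fun u v => LinearMap.congr_fun₂ hiso u v⟩, Subtype.ext
    (LinearEquiv.toLinearMap_injective (b.ext fun i => ?_))⟩
  simp only [Subgroup.coe_mul, LinearEquiv.coe_coe, LinearEquiv.mul_apply]
  rcases i with i | i
  · rw [← hbt]; simp [e, hbt']
  · rw [hbt i, ht, map_neg]
    simp [e, ← hbt i, hbt', ht']

/-- Among `m ≥ 3` non-central elements with central square, two are conjugate modulo the centre. -/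
theorem exists_conj_mod_center [Finite F] (h2 : (2 : F) ≠ 0) (hA : B.IsAlt) (hB : B.Nondegenerate)
    {m : ℕ} (hm : 3 ≤ m) (hV : Module.finrank F V = 2 * m) (t : Fin m → ↥(isoGroup B))
    (hsq : ∀ i, t i * t i ∈ Subgroup.center ↥(isoGroup B))
    (hnc : ∀ i, t i ∉ Subgroup.center ↥(isoGroup B)) :
    ∃ i j, i ≠ j ∧ ∃ g, ∃ z ∈ Subgroup.center ↥(isoGroup B), g * t i * g⁻¹ = t j * z := by
  classical
  let key : Fin m → Option ℕ := fun i =>
    if ∀ x, (t i : V ≃ₗ[F] V) ((t i : V ≃ₗ[F] V) x) = -x then none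
    else some (min (Module.finrank F (fixSpace B (t i))) (2 * m - Module.finrank F (fixSpace B (t i))) / 2)
  have hcase : ∀ i, key i ≠ none → (∀ x, (t i : V ≃ₗ[F] V) ((t i : V ≃ₗ[F] V) x) = x) ∧
      0 < Module.finrank F (fixSpace B (t i)) ∧ Module.finrank F (fixSpace B (t i)) < 2 * m := by
    intro i hi
    have hn : ¬ ∀ x, (t i : V ≃ₗ[F] V) ((t i : V ≃ₗ[F] V) x) = -x := fun h => hi (if_pos h)
    have h1 : ∀ x, (t i : V ≃ₗ[F] V) ((t i : V ≃ₗ[F] V) x) = x := by
      rcases center_isoGroup hA hB _ (hsq i) with h | h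
      · exact h
      · exact absurd h hn
    refine ⟨h1, Nat.pos_of_ne_zero fun h => ?_, lt_of_le_of_ne (hV ▸ Submodule.finrank_le _) fun h => ?_⟩
    · have hc := (isCompl_eigen h2 h1).sup_eq_top
      rw [Submodule.finrank_eq_zero.1 h, bot_sup_eq] at hc
      have : t i = negIso B := Subtype.ext (LinearEquiv.ext fun x => by
        rw [negIso_apply]; exact mem_negSpace.1 (hc ▸ Submodule.mem_top))
      exact hnc i (this ▸ negIso_mem_center B)
    · have htop := Submodule.eq_top_of_finrank_eq (h.trans hV.symm)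
      have : t i = 1 := Subtype.ext (LinearEquiv.ext fun x => by
        simpa using mem_fixSpace.1 (htop ▸ Submodule.mem_top : x ∈ fixSpace B (t i)))
      exact hnc i (this ▸ one_mem _)
  have hmem : ∀ i ∈ (Finset.univ : Finset (Fin m)), key i ∈ insert none ((Finset.Icc 1 (m / 2)).image some) := by
    intro i _
    by_cases hi : key i = none
    · rw [hi]; exact Finset.mem_insert_self _ _
    obtain ⟨h1, h3, h4⟩ := hcase i hi
    obtain ⟨r, hr⟩ := even_fixSpace h2 hA hB h1
    have hk : key i = some (min (Module.finrank F (fixSpace B (t i)))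
        (2 * m - Module.finrank F (fixSpace B (t i))) / 2) := if_neg fun h => hi (if_pos h)
    rw [hk]
    refine Finset.mem_insert_of_mem (Finset.mem_image.2 ⟨_, Finset.mem_Icc.2 ⟨?_, ?_⟩, rfl⟩) <;> omega
  have hcard : (insert none ((Finset.Icc 1 (m / 2)).image some) : Finset (Option ℕ)).card <
      (Finset.univ : Finset (Fin m)).card := by
    refine lt_of_le_of_lt ((Finset.card_insert_le _ _).trans (Nat.add_le_add_right Finset.card_image_le 1)) ?_
    simp; omega
  obtain ⟨i, -, j, -, hij, he⟩ := Finset.exists_ne_map_eq_of_card_lt_of_maps_to hcard hmem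
  refine ⟨i, j, hij, ?_⟩
  by_cases hi : key i = none
  · have hn : ∀ l, key l = none → ∀ x, (t l : V ≃ₗ[F] V) ((t l : V ≃ₗ[F] V) x) = -x := by
      intro l hl
      by_contra h
      simp [key, h] at hl
    obtain ⟨g, hg⟩ := conj_of_sq_neg h2 hA hB (hn i hi) (hn j (he ▸ hi))
    exact ⟨g, 1, one_mem _, by rw [hg, mul_one, mul_inv_cancel_right]⟩
  have hj : key j ≠ none := fun h => hi (he.trans h)
  obtain ⟨a1, a3, a4⟩ := hcase i hi
  obtain ⟨b1, b3, b4⟩ := hcase j hj
  obtain ⟨r, hr⟩ := even_fixSpace h2 hA hB a1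
  obtain ⟨s, hs⟩ := even_fixSpace h2 hA hB b1
  have hki : key i = some _ := if_neg fun h => hi (if_pos h)
  have hkj : key j = some _ := if_neg fun h => hj (if_pos h)
  rw [hki, hkj, Option.some.injEq] at he
  by_cases heq : Module.finrank F (fixSpace B (t i)) = Module.finrank F (fixSpace B (t j))
  · obtain ⟨g, hg⟩ := conj_of_finrank_fix_eq h2 hA hB a1 b1 heq
    exact ⟨g, 1, one_mem _, by rw [hg, mul_one, mul_inv_cancel_right]⟩
  · have hne : ∀ x, ((t j * negIso B : ↥(isoGroup B)) : V ≃ₗ[F] V) x = -((t j : V ≃ₗ[F] V) x) := by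
      intro x; simp [negIso_apply]
    have hfix : fixSpace B (t j * negIso B) = negSpace B (t j) := by
      ext x; rw [mem_fixSpace, mem_negSpace, hne, neg_eq_iff_eq_neg]
    have hd := Submodule.finrank_add_eq_of_isCompl (isCompl_eigen h2 b1)
    obtain ⟨g, hg⟩ := conj_of_finrank_fix_eq h2 hA hB a1 (t' := t j * negIso B)
      (fun x => by rw [hne, hne, map_neg, neg_neg, b1]) (by rw [hfix]; omega)
    exact ⟨g, negIso B, negIso_mem_center B, by rw [hg, mul_inv_cancel_right]⟩

end Cfsg.Agent.InvClasses25
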